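import Cfsg.Agent.H392.KKL.X2a
import Cfsg.Agent.H40.KKL.XOne
import Cfsg.Agent.H348.KKL.PSix

/-!
# S4577, row `E₈(q)`, `q` odd: classical involutions with nonclassical products (helper304)

* `exists_anti` : a matrix of `SL₂(F)` anticommuting with a given matrix of trace zero;
* `swap` : an involution `c` acting nontrivially on `J_t` is conjugate to `t c`;
* `comm_J` : `J_t`, `J_s` commute;
* `abb` : no three commuting classical involutions of `E₈(q)` whose products are not classical.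
-/

set_option autoImplicit false
set_option linter.unusedSectionVars false

namespace Cfsg.Agent.H304.KS.ABB

open Module Cfsg.Agent.H613.KKL Cfsg.Agent.H40.KKL Cfsg.Agent.H392.KKL
open scoped MatrixGroups

/-! ### `SL₂` -/

section mat

variable {F : Type} [Field F] [Fintype F]

theorem card_mod (h2 : (2 : F) ≠ 0) : Fintype.card F % 2 = 1 := Nat.odd_iff.1 (odd_card h2)

/-- `X² + δ Y² + e = 0` is solvable -/
theorem exists_quad (h2 : (2 : F) ≠ 0) {δ : F} (hδ : δ ≠ 0) (e : F) : ∃ X Y : F, X ^ 2 + δ * Y ^ 2 + e = 0 := by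
  open Polynomial in
  have h1 : degree (X ^ 2 + C e : F[X]) = 2 := degree_X_pow_add_C (by norm_num) e
  have h3 : degree (C δ * X ^ 2 : F[X]) = 2 := degree_C_mul_X_pow 2 hδ
  obtain ⟨a, b, h⟩ := FiniteField.exists_root_sum_quadratic h1 h3 (card_mod h2)
  refine ⟨a, b, ?_⟩
  simp only [Polynomial.eval_add, Polynomial.eval_pow, Polynomial.eval_X, Polynomial.eval_C,
    Polynomial.eval_mul] at h
  linear_combination h

/-- the equations of an anticommuting matrix -/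
theorem exists_xyz (h2 : (2 : F) ≠ 0) {a b c : F} (hd : a * a + b * c ≠ 0) :
    ∃ x y z : F, x * x + y * z = -1 ∧ 2 * a * x + b * z + c * y = 0 := by
  by_cases hb : b = 0
  · by_cases hc : c = 0
    · refine ⟨0, 1, -1, by ring, ?_⟩
      rw [hb, hc]; ring
    · obtain ⟨X, Z, h⟩ := exists_quad h2 (neg_ne_zero.2 hd) (c * c)
      refine ⟨(X + a * Z) / c, -(2 * a * ((X + a * Z) / c) + b * Z) / c, Z, ?_, ?_⟩
      · field_simp
        linear_combination h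
      · field_simp
        ring
  · obtain ⟨X, Y, h⟩ := exists_quad h2 (neg_ne_zero.2 hd) (b * b)
    refine ⟨(X + a * Y) / b, Y, -(2 * a * ((X + a * Y) / b) + c * Y) / b, ?_, ?_⟩
    · field_simp
      linear_combination h
    · field_simp
      ring

/-- an anticommuting element of `SL₂(F)` -/
theorem exists_anti (h2 : (2 : F) ≠ 0) {A : GL (Fin 2) F}
    (h : (A : Matrix (Fin 2) (Fin 2) F) 0 0 + (A : Matrix (Fin 2) (Fin 2) F) 1 1 = 0) :
    ∃ u : SL(2, F), cg A u = -1 * u := by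
  set M : Matrix (Fin 2) (Fin 2) F := (A : Matrix (Fin 2) (Fin 2) F) with hM
  have hdet : M.det ≠ 0 := (Matrix.isUnits_det_units A).ne_zero
  rw [Matrix.det_fin_two] at hdet
  have h11 : M 1 1 = -M 0 0 := by linear_combination h
  have hd : M 0 0 * M 0 0 + M 0 1 * M 1 0 ≠ 0 := by
    intro h3
    apply hdet
    rw [h11]
    linear_combination -h3
  obtain ⟨x, y, z, e1, e2⟩ := exists_xyz h2 hd
  refine ⟨⟨!![x, y; z, -x], by rw [Matrix.det_fin_two_of]; linear_combination -e1⟩, cg_eq ?_⟩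
  show M * !![x, y; z, -x] = (-1 * !![x, y; z, -x]) * M
  ext i j
  fin_cases i <;> fin_cases j <;>
    simp only [Matrix.mul_apply, Fin.sum_univ_two, Fin.zero_eta, Fin.mk_one,
      neg_mul, one_mul, Matrix.neg_apply, Matrix.of_apply, Matrix.cons_val', Matrix.cons_val_zero,
      Matrix.cons_val_one, Matrix.cons_val_fin_one, h11]
  · linear_combination e2
  · ring
  · ring
  · linear_combination e2

end mat

section hom

variable {K : Type*} [Group K] {F : Type} [Field F] [Fintype F]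

/-- an involution acting nontrivially on the image of `Q` is conjugate to its product with `Q (-1)` -/
theorem swap_hom (h2 : (2 : F) ≠ 0) {Q : SL(2, F) →* K} (h1 : Q (-1) ≠ 1) {c : K} (hc : Act Q c) (hcc : c * c = 1)
    (hne : ¬ Cz Q.range c) : ∃ u : K, u * c * u⁻¹ = Q (-1) * c := by
  obtain ⟨g, hg⟩ := hc
  have hQ := inj_of_neg h2 h1
  have hns : ¬ Sc (g : Matrix (Fin 2) (Fin 2) F) := by
    intro h
    apply hne
    rintro _ ⟨s, rfl⟩
    have h3 := cg_trivial.2 (center_iff.2 h) s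
    have h4 := hg s
    rw [h3] at h4
    exact mul_inv_eq_iff_eq_mul.1 h4
  have hsq : Sc ((g : Matrix (Fin 2) (Fin 2) F) * (g : Matrix (Fin 2) (Fin 2) F)) := by
    have h3 : g * g ∈ Subgroup.center (GL (Fin 2) F) := by
      rw [← cg_trivial]
      intro s
      apply hQ
      rw [cg_mul, ← hg, ← hg]
      have h4 : c * (c * Q s * c⁻¹) * c⁻¹ = (c * c) * Q s * (c * c)⁻¹ := by group
      rw [h4, hcc, one_mul, inv_one, mul_one]
    rw [center_iff, Units.val_mul] at h3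
    exact h3
  obtain ⟨u, hu⟩ := exists_anti h2 (trace_zero hns hsq)
  have h3 := hg u
  rw [hu, map_mul] at h3
  have hz : Q (-1) * Q u = Q u * Q (-1) := by
    rw [← map_mul, ← map_mul]
    congr 1
    simp
  refine ⟨(Q u)⁻¹, ?_⟩
  have h5 : c * Q u = Q (-1) * Q u * c := mul_inv_eq_iff_eq_mul.1 h3
  calc (Q u)⁻¹ * c * (Q u)⁻¹⁻¹ = (Q u)⁻¹ * (c * Q u) := by group
    _ = (Q u)⁻¹ * (Q u * Q (-1)) * c := by rw [h5, hz]; group
    _ = Q (-1) * c := by group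

end hom

/-! ### two classical involutions -/

section two

variable {K : Type*} [Group K]

/-- **the `J_t` commute** -/
theorem comm_J {t s : K} {Jt Js : Subgroup K} (ht : CI t Jt) (hs : CI s Js) (htt : t * t = 1) (hs1 : s ≠ 1)
    (ht1 : t ≠ 1) (hst : s ≠ t) (c1 : Cz Jt s) (c2 : Cz Js t) {g h : K} (hg : g ∈ Jt) (hh : h ∈ Js) :
    g * h = h * g := by
  have hA : Jt ⊓ Js = ⊥ := by
    by_contra hne
    have h1 : t ∈ Jt ⊓ Js := ⟨ht.mem, by
      have := ht.cap (Jt ⊓ Js) inf_le_left (by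
        intro u hu a ha
        exact ⟨mul_mem (mul_mem hu ha.1) (Jt.inv_mem hu), hs.norm u (c1 u hu).symm a ha.2⟩) hne
      exact this.2⟩
    have h2 := hs.cap (Subgroup.zpowers t) (by
      rw [Subgroup.zpowers_le]; exact h1.2) (by
      rintro u hu _ ⟨n, rfl⟩
      have h3 : Commute u t := (c2 u hu).symm
      have h4 : u * t ^ n * u⁻¹ = t ^ n := by
        rw [(h3.zpow_right n).eq, mul_inv_cancel_right]
      show u * t ^ n * u⁻¹ ∈ Subgroup.zpowers t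
      rw [h4]
      exact ⟨n, rfl⟩) (by
      intro h3
      rw [Subgroup.zpowers_eq_bot] at h3
      exact ht1 h3)
    obtain ⟨n, hn⟩ := h2
    have hn' : t ^ n = s := hn
    rcases Int.even_or_odd' n with ⟨m, rfl | rfl⟩
    · apply hs1
      rw [← hn', zpow_mul, zpow_two, htt, one_zpow]
    · apply hst
      rw [← hn', zpow_add, zpow_mul, zpow_two, htt, one_zpow, one_mul, zpow_one]
  have h1 : g * h * g⁻¹ * h⁻¹ ∈ Jt ⊓ Js := by
    refine ⟨?_, ?_⟩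
    · have h2 := ht.norm h (c2 h hh).symm g⁻¹ (Jt.inv_mem hg)
      have h3 : g * h * g⁻¹ * h⁻¹ = g * (h * g⁻¹ * h⁻¹) := by group
      rw [h3]
      exact mul_mem hg h2
    · have h2 := hs.norm g (c1 g hg).symm h hh
      exact mul_mem h2 (Js.inv_mem hh)
  rw [hA, Subgroup.mem_bot] at h1
  calc g * h = g * h * g⁻¹ * h⁻¹ * (h * g) := by group
    _ = h * g := by rw [h1, one_mul]

end two

/-! ### three classical involutions -/

section lin

variable {k : Type} [Field k] [Finite k] {V : Type} [AddCommGroup V] [Module k V] [FiniteDimensional k V]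

open Classical in
/-- the dimension of the space `A = B = C = -1` -/
theorem dim_P (h2 : (2 : k) ≠ 0) {A B C : Module.End k V} (hA : A * A = 1) (hB : B * B = 1) (hC : C * C = 1)
    (hAB : A * B = B * A) (hAC : A * C = C * A) (hBC : B * C = C * B)
    (h1 : finrank k ↥(E A (-1)) = 112) (h3 : finrank k ↥(E B (-1)) = 112) (h4 : finrank k ↥(E C (-1)) = 112)
    (h5 : finrank k ↥(E (A * B) (-1)) = 128) (h6 : finrank k ↥(E (A * C) (-1)) = 128)
    (h7 : finrank k ↥(E (B * C) (-1)) = 128) (h8 : finrank k ↥(E (A * B * C) (-1)) = 128) :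
    finrank k ↥(P A B C (-1) (-1) (-1)) = 20 := by
  have hne : (1 : k) ≠ -1 := by
    intro e
    apply h2
    have : (2 : k) = 1 + 1 := by norm_num
    rw [this]
    nth_rewrite 1 [e]
    exact neg_add_cancel 1
  have c := count h2 hA hB hC hAB hAC hBC
  have tr : ∀ {X Y : Module.End k V} {n : ℕ}, X = Y → finrank k ↥(E Y (-1)) = n → finrank k ↥(E X (-1)) = n := by
    rintro X _ n rfl h
    exact h
  have c1 := (c 1 0 0).symm.trans (tr (by simp) h1)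
  have c2 := (c 0 1 0).symm.trans (tr (by simp) h3)
  have c3 := (c 0 0 1).symm.trans (tr (by simp) h4)
  have c4 := (c 1 1 0).symm.trans (tr (by simp) h5)
  have c5 := (c 1 0 1).symm.trans (tr (by simp) h6)
  have c6 := (c 0 1 1).symm.trans (tr (by simp) h7)
  have c7 := (c 1 1 1).symm.trans (tr (by simp) h8)
  simp only [pow_zero, pow_one, mul_one, neg_neg, mul_neg, if_neg hne, if_true, zero_add,
    add_zero] at c1 c2 c3 c4 c5 c6 c7
  omega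

/-- **three commuting classical involutions** -/
theorem kill {K : Type*} [Group K] {t₁ t₂ t₃ : K} {J₁ J₂ J₃ : Subgroup K} (q₁ : CI t₁ J₁) (q₂ : CI t₂ J₂)
    (q₃ : CI t₃ J₃) (s₁ : t₁ * t₁ = 1) (s₂ : t₂ * t₂ = 1) (s₃ : t₃ * t₃ = 1) (m₁₂ : t₁ * t₂ = t₂ * t₁)
    (m₁₃ : t₁ * t₃ = t₃ * t₁) (m₂₃ : t₂ * t₃ = t₃ * t₂)
    (k₁₂ : Cz J₁ t₂) (k₁₃ : Cz J₁ t₃) (k₂₁ : Cz J₂ t₁) (k₂₃ : Cz J₂ t₃) (k₃₁ : Cz J₃ t₁) (k₃₂ : Cz J₃ t₂)
    (n₁₂ : ∀ g ∈ J₁, ∀ h ∈ J₂, g * h = h * g) (n₁₃ : ∀ g ∈ J₁, ∀ h ∈ J₃, g * h = h * g)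
    (n₂₃ : ∀ g ∈ J₂, ∀ h ∈ J₃, g * h = h * g)
    (h2 : (2 : k) ≠ 0) (ρ : K →* Module.End k V)
    (h1 : finrank k ↥(LinearMap.ker (ρ t₁ + 1)) = 112) (h3 : finrank k ↥(LinearMap.ker (ρ t₂ + 1)) = 112)
    (h4 : finrank k ↥(LinearMap.ker (ρ t₃ + 1)) = 112) (h5 : finrank k ↥(LinearMap.ker (ρ (t₁ * t₂) + 1)) = 128)
    (h6 : finrank k ↥(LinearMap.ker (ρ (t₁ * t₃) + 1)) = 128) (h7 : finrank k ↥(LinearMap.ker (ρ (t₂ * t₃) + 1)) = 128)
    (h8 : finrank k ↥(LinearMap.ker (ρ (t₁ * t₂ * t₃) + 1)) = 128) : False := by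
  have hker : ∀ s : K, LinearMap.ker (ρ s + 1) = E (ρ s) (-1) := by
    intro s
    ext v
    rw [LinearMap.mem_ker, mem_E, LinearMap.add_apply, Module.End.one_apply, neg_one_smul, add_eq_zero_iff_eq_neg]
  rw [hker] at h1 h3 h4 h5 h6 h7 h8
  rw [map_mul] at h5 h6 h7
  rw [map_mul, map_mul] at h8
  have sq : ∀ {s : K}, s * s = 1 → ρ s * ρ s = 1 := fun h => by rw [← map_mul, h, map_one]
  have cm : ∀ {s s' : K}, s * s' = s' * s → ρ s * ρ s' = ρ s' * ρ s := fun h => by rw [← map_mul, ← map_mul, h]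
  have h20 := dim_P h2 (sq s₁) (sq s₂) (sq s₃) (cm m₁₂) (cm m₁₃) (cm m₂₃) h1 h3 h4 h5 h6 h7 h8
  obtain ⟨i₁, mi₁, j₁, mj₁, r₁⟩ := q₁.q8
  obtain ⟨i₂, mi₂, j₂, mj₂, r₂⟩ := q₂.q8
  obtain ⟨i₃, mi₃, j₃, mj₃, r₃⟩ := q₃.q8
  have k₁₁ := ci_cz q₁
  have k₂₂ := ci_cz q₂
  have k₃₃ := ci_cz q₃
  have good : ∀ {s : K} {J : Subgroup K} (_ : Cz J t₁) (_ : Cz J t₂) (_ : Cz J t₃)
      (_ : ∀ u ∈ P (ρ t₁) (ρ t₂) (ρ t₃) (-1 : k) (-1) (-1), ρ s u = -u) {i j : K}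
      (_ : i ∈ J) (_ : j ∈ J) (_ : i * i = s ∧ j * j = s ∧ i * j = s * (j * i)),
      (∀ u ∈ P (ρ t₁) (ρ t₂) (ρ t₃) (-1 : k) (-1) (-1), ρ i u ∈ P (ρ t₁) (ρ t₂) (ρ t₃) (-1 : k) (-1) (-1)) ∧
      (∀ u ∈ P (ρ t₁) (ρ t₂) (ρ t₃) (-1 : k) (-1) (-1), ρ j u ∈ P (ρ t₁) (ρ t₂) (ρ t₃) (-1 : k) (-1) (-1)) ∧
      (∀ u ∈ P (ρ t₁) (ρ t₂) (ρ t₃) (-1 : k) (-1) (-1), ρ i (ρ i u) = -u) ∧
      (∀ u ∈ P (ρ t₁) (ρ t₂) (ρ t₃) (-1 : k) (-1) (-1), ρ j (ρ j u) = -u) ∧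
      ∀ u ∈ P (ρ t₁) (ρ t₂) (ρ t₃) (-1 : k) (-1) (-1), ρ i (ρ j u) = -ρ j (ρ i u) := by
    rintro s J z1 z2 z3 hneg i j hi hj ⟨r1, r2, r3⟩
    have mv : ∀ g ∈ J, ∀ u ∈ P (ρ t₁) (ρ t₂) (ρ t₃) (-1 : k) (-1) (-1),
        ρ g u ∈ P (ρ t₁) (ρ t₂) (ρ t₃) (-1 : k) (-1) (-1) := by
      intro g hg u hu
      obtain ⟨u1, u2, u3⟩ := mem_P.1 hu
      have sw : ∀ {d}, Cz J d → ρ d (ρ g u) = ρ g (ρ d u) := by
        intro d hd
        have h5 : ρ d * ρ g = ρ g * ρ d := cm (hd g hg)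
        exact LinearMap.congr_fun h5 u
      exact mem_P.2 ⟨by rw [sw z1, u1, map_smul], by rw [sw z2, u2, map_smul], by rw [sw z3, u3, map_smul]⟩
    refine ⟨mv i hi, mv j hj, ?_, ?_, ?_⟩
    · intro u hu
      rw [← hneg u hu, ← r1, map_mul]
      rfl
    · intro u hu
      rw [← hneg u hu, ← r2, map_mul]
      rfl
    · intro u hu
      have h5 : ρ i * ρ j = ρ s * (ρ j * ρ i) := by rw [← map_mul, r3, map_mul, map_mul]
      have h6 : ρ i (ρ j u) = ρ s (ρ j (ρ i u)) := LinearMap.congr_fun h5 u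
      rw [h6, hneg _ (mv j hj _ (mv i hi u hu))]
  have e1 : ∀ u ∈ P (ρ t₁) (ρ t₂) (ρ t₃) (-1 : k) (-1) (-1), ρ t₁ u = -u := fun u hu => by
    rw [(mem_P.1 hu).1, neg_one_smul]
  have e2 : ∀ u ∈ P (ρ t₁) (ρ t₂) (ρ t₃) (-1 : k) (-1) (-1), ρ t₂ u = -u := fun u hu => by
    rw [(mem_P.1 hu).2.1, neg_one_smul]
  have e3 : ∀ u ∈ P (ρ t₁) (ρ t₂) (ρ t₃) (-1 : k) (-1) (-1), ρ t₃ u = -u := fun u hu => by
    rw [(mem_P.1 hu).2.2, neg_one_smul]
  have h9 : 2 ^ ([(ρ i₁, ρ j₁), (ρ i₂, ρ j₂), (ρ i₃, ρ j₃)] : List (Module.End k V × Module.End k V)).length ∣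
      finrank k ↥(P (ρ t₁) (ρ t₂) (ρ t₃) (-1 : k) (-1) (-1)) := by
    refine pow_dvd h2 _ ?_ _ ?_
    · simp only [List.pairwise_cons, List.mem_cons, List.not_mem_nil, or_false, forall_eq_or_imp, forall_eq,
        List.Pairwise.nil, and_true, IsEmpty.forall_iff, implies_true]
      exact ⟨⟨⟨cm (n₁₂ _ mi₁ _ mi₂), cm (n₁₂ _ mi₁ _ mj₂), cm (n₁₂ _ mj₁ _ mi₂), cm (n₁₂ _ mj₁ _ mj₂)⟩,
        ⟨cm (n₁₃ _ mi₁ _ mi₃), cm (n₁₃ _ mi₁ _ mj₃), cm (n₁₃ _ mj₁ _ mi₃), cm (n₁₃ _ mj₁ _ mj₃)⟩⟩,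
        ⟨cm (n₂₃ _ mi₂ _ mi₃), cm (n₂₃ _ mi₂ _ mj₃), cm (n₂₃ _ mj₂ _ mi₃), cm (n₂₃ _ mj₂ _ mj₃)⟩⟩
    · intro p hp
      simp only [List.mem_cons, List.not_mem_nil, or_false] at hp
      rcases hp with rfl | rfl | rfl
      · exact good k₁₁ k₁₂ k₁₃ e1 mi₁ mj₁ r₁
      · exact good k₂₁ k₂₂ k₂₃ e2 mi₂ mj₂ r₂
      · exact good k₃₁ k₃₂ k₃₃ e3 mi₃ mj₃ r₃
  rw [h20] at h9
  revert h9
  norm_num

end lin

/-! ### the action of the centralizer -/

section act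

open CoxeterSystem
open Cfsg Cfsg.Lie Cfsg.Lie.ChevalleyDatum
open Cfsg.Agent.ChevalleyStructure Cfsg.Agent.ChevalleyStructure.Elts Cfsg.Agent.ChevalleyStructure.CoxeterGeom
  Cfsg.Agent.ChevalleyStructure.RootVec Cfsg.Agent.ChevalleyStructure.RootVecTab
  Cfsg.Agent.ChevalleyStructure.CoxeterGeomTypes
open Cfsg.Agent.Tits.Roots Cfsg.Agent.Nodes.Reps Cfsg.Agent.Nodes.BNOf Cfsg.Agent.Nodes.RGDChev
  Cfsg.Agent.Nodes.Bruhat Cfsg.Agent.Nodes.RGDLib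
open Cfsg.Agent.OddHalf.LongSL Cfsg.Agent.OddHalf.LongSL.Chev
open Cfsg.Agent.KFacts.RgdChevCoord (TT XX xc coe_xc coords)
open Cfsg.Agent.GenExc Cfsg.Agent.GenExc.Chev
open Cfsg.Agent.H557.LrTor Cfsg.Agent.H557.LrOrb Cfsg.Agent.H557.LrIso Cfsg.Agent.H557.LrChev Cfsg.Agent.H557.LrRho
  Cfsg.Agent.H557.LrData

variable {D : ChevalleyDatum} {l m : ℕ} {M : CoxeterMatrix (Fin l)} (hp : IsType D l M) {K : Type} [Field K]
  {W : Type*} [Group W] (cs : CoxeterSystem M W) {f : Fin (m + 1) ↪ Fin l} {S Jc Js : List (Fin l)} {rho : ℕ}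
  {i0 : Fin l} {ω : List (Fin l)} (H : RhoD D f S Jc Js rho i0 ω) [Fintype K] (p : ℕ) [Fact p.Prime] [CharP K p]
  (hZ : Subgroup.center ↥(D.group K) = ⊥)

include hp cs H p hZ in
theorem act_rho (h2 : (2 : K) ≠ 0) (ho : ∃ r < D.nroots, evB D [i0] r = false) {c : ↥(D.group K)}
    (hc : c * zS hp K [i0] = zS hp K [i0] * c) : Act (phi hp K i0) c := by
  have e0 : zS hp K [i0] = phi hp K i0 (-1) := by rw [zS_cons, zS_nil, mul_one]
  have h1 : phi hp K i0 (-1) ≠ 1 := by rw [← e0]; exact zS_ne_one hp h2 ho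
  have hQ : Function.Injective (phi hp K i0) := inj_of_neg h2 h1
  obtain ⟨k₀, hk₀, hz⟩ := H.exists_conj hp cs p hZ
  have ha : rep cs hp.isCartan (cs.wordProd ω) (sr i0) = vec D l rho := by rw [rep_word cs hp.isCartan, H.word]
  have hc' : k₀ * c * k₀⁻¹ ∈ Subgroup.centralizer {y | ∃ T ∈ [S], y = zS hp K T} := by
    rw [set_eq, Subgroup.mem_centralizer_iff]
    intro y hy
    rw [Set.mem_singleton_iff] at hy
    rw [hy, ← hz]
    calc _ = k₀ * (zS hp K [i0] * c) * k₀⁻¹ := by group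
      _ = _ := by rw [← hc]; group
  have h3 := act_cent hp cs p hQ h2 hk₀ [S] (by rw [ha]; exact comm_of_iso hp cs h2 [S] (H.iso hp cs))
    (by rw [ha]; exact stab_of_iso hp cs p h2 [S] (H.iso hp cs)) hc'
  have e : k₀⁻¹ * (k₀ * c * k₀⁻¹) * k₀ = c := by group
  rwa [e] at h3

/-- the centralizer of the classical involution of `E₈(q)` acts through `GL₂(q)` -/
theorem act_E8 {F : Type} [Field F] [Fintype F] (h2 : (2 : F) ≠ 0) {c : ↥(chevE8.group F)}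
    (hc : c * zS isType_E8 F [7] = zS isType_E8 F [7] * c) : Act (phi isType_E8 F 7) c := by
  obtain ⟨p, hpp, hpc⟩ := exists_prime F
  have : Fact p.Prime := ⟨hpp⟩
  exact act_rho isType_E8 (CoxeterMatrix.E₈).toCoxeterSystem rhoE8 p (center_eq_bot (S1054.result _ (by simp))) h2
    (by decide +kernel) hc

end act

/-! ### `E₈(q)` -/

section E8

open Cfsg Cfsg.Lie Cfsg.Lie.ChevalleyDatum Cfsg.Agent.H167.KKL
open Cfsg.Agent.ChevalleyStructure Cfsg.Agent.ChevalleyStructure.RootVec Cfsg.Agent.ChevalleyStructure.Elts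
open Cfsg.Agent.GenExc.Chev (zS isType_E8 zS_cons zS_nil)
open Cfsg.Agent.OddHalf.LongSL.Chev (phi)
open Cfsg.Agent.OddHalf.NI.ModelChev Cfsg.Agent.H557.SignTorus Cfsg.Agent.H557.InvClass
  Cfsg.Agent.H557.ToralTypes Cfsg.Agent.H557.OrbE8 Cfsg.Agent.H557.InvE8 Cfsg.Agent.H557.SubTab
open Cfsg.Agent.Nodes.RGDChev Cfsg.Agent.KFacts.RgdChevCoord
open Cfsg.Agent.H348.KKL.E8R (ch_rep two_ne trL_isConj zS_eq trL_TT trL_emb tr_D8)

variable {F : Type} [Field F] [Fintype F]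

/-- **if `c` and `t` are commuting involutions, `t` classical, and `c` is not conjugate to `t c`, then `c` centralises
`J_t`** -/
theorem cz_of (h2 : (2 : F) ≠ 0) {J : ↥(chevE8.group F) → Subgroup ↥(chevE8.group F)}
    (hJ0 : J (zS isType_E8 F [7]) = (phi isType_E8 F 7).range) (hJ2 : ∀ y t g, y * g * y⁻¹ ∈ J (y * t * y⁻¹) ↔ g ∈ J t)
    {t c : ↥(chevE8.group F)} (ht : IsConj (zS isType_E8 F [7]) t) (hcc : c * c = 1) (hct : c * t = t * c)
    (hn : ¬ IsConj c (t * c)) : Cz (J t) c := by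
  by_contra hcz
  obtain ⟨g, rfl⟩ := isConj_iff.1 ht
  have e0 : zS isType_E8 F [7] = phi isType_E8 F 7 (-1) := by rw [zS_cons, zS_nil, mul_one]
  have h1 : phi isType_E8 F 7 (-1) ≠ 1 := by
    rw [← e0]
    exact zS_ne_one isType_E8 h2 (by decide +kernel)
  have hc' : g⁻¹ * c * g * zS isType_E8 F [7] = zS isType_E8 F [7] * (g⁻¹ * c * g) := by
    calc _ = g⁻¹ * (c * (g * zS isType_E8 F [7] * g⁻¹)) * g := by group
      _ = _ := by rw [hct]; group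
  have hcc' : g⁻¹ * c * g * (g⁻¹ * c * g) = 1 := by
    calc _ = g⁻¹ * (c * c) * g := by group
      _ = 1 := by rw [hcc]; group
  obtain ⟨u, hu⟩ := swap_hom h2 h1 (act_E8 h2 hc') hcc' (by
    intro h3
    apply hcz
    intro j hj
    have h4 : g⁻¹ * j * g ∈ J (zS isType_E8 F [7]) := by
      rw [← hJ2 g]
      have e : g * (g⁻¹ * j * g) * g⁻¹ = j := by group
      rwa [e]
    rw [hJ0] at h4
    have h5 := h3 _ h4
    calc c * j = g * (g⁻¹ * c * g * (g⁻¹ * j * g)) * g⁻¹ := by group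
      _ = j * c := by rw [h5]; group)
  apply hn
  rw [isConj_iff]
  refine ⟨g * u * g⁻¹, ?_⟩
  rw [← e0] at hu
  calc g * u * g⁻¹ * c * (g * u * g⁻¹)⁻¹ = g * (u * (g⁻¹ * c * g) * u⁻¹) * g⁻¹ := by group
    _ = g * zS isType_E8 F [7] * g⁻¹ * c := by rw [hu]; group

theorem phi_eq (i : Fin 8) : phi isType_E8 F i (-1) = th Nodes.KindE.isType8 (Pi.mulSingle i (-1 : Fˣ)) := by
  show _ = ((thT Nodes.KindE.isType8 (Pi.mulSingle i (-1 : Fˣ)) : ↥(TT chevE8 F)) : ↥(chevE8.group F))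
  rw [thT_mulSingle, coe_hcH]
  apply Subtype.ext
  rw [Cfsg.Agent.OddHalf.LongSL.Chev.phi_neg_one]
  simp only [Units.val_neg, Units.val_one]
  rfl

theorem zS_eq2 : zS isType_E8 F [0, 7] = th Nodes.KindE.isType8 (sg F 8 129) := by
  have h5 : sg F 8 129 = Pi.mulSingle 0 (-1 : Fˣ) * Pi.mulSingle 7 (-1 : Fˣ) := by
    funext i
    fin_cases i <;> simp [Cfsg.Agent.H557.SignTorus.sg, Nat.testBit]
  rw [h5, map_mul, ← phi_eq, ← phi_eq, zS_cons, zS_cons, zS_nil, mul_one]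

/-- the `(-1)`-eigenspace of the second class -/
theorem dim_D8 (h2 : (2 : F) ≠ 0) {t : ↥(chevE8.group F)}
    (ht : IsConj (th Nodes.KindE.isType8 (sg F 8 n_TabD8)) t) :
    finrank F ↥(LinearMap.ker (Cfsg.Agent.H392.KKL.rho chevE8 F t + 1)) = 128 := by
  obtain ⟨p, hpp, hpc⟩ := exists_prime F
  have : Fact p.Prime := ⟨hpp⟩
  have c1 := D_TabD8.conj hcm (K := F) p (m := 129) (by decide)
  rw [finrank_of_isConj (Cfsg.Agent.H392.KKL.rho chevE8 F) (c1.trans ht), ← zS_eq2]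
  exact finrank_zS isType_E8 (CoxeterMatrix.E₈).toCoxeterSystem h2 [0, 7] (by decide +kernel)

/-- the two classes of involutions -/
theorem class_of (ho : Odd (Fintype.card F)) {t : ↥(chevE8.group F)} (ht : t * t = 1) (ht1 : t ≠ 1) :
    IsConj (zS isType_E8 F [7]) t ∨ IsConj (th Nodes.KindE.isType8 (sg F 8 n_TabD8)) t := by
  obtain ⟨p, hpp, hpc⟩ := exists_prime F
  have : Fact p.Prime := ⟨hpp⟩
  obtain ⟨g, hg⟩ := toral_E8 ho ht
  obtain ⟨b, hb⟩ := surj_E8 hg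
  have hb2 : b * b = 1 := by
    apply inj_E8
    rw [map_mul, hb]
    have : g * t * g⁻¹ * (g * t * g⁻¹) = g * (t * t) * g⁻¹ := by group
    rw [this, ht, mul_one, mul_inv_cancel]
  obtain ⟨m, hm, rfl⟩ := exists_sg hb2
  have c4 : IsConj t (th Nodes.KindE.isType8 (sg F 8 m)) := isConj_iff.2 ⟨g, hb.symm⟩
  rcases cover m hm with h0 | h0 | h0
  · exfalso
    subst h0
    rw [sg_zero, map_one] at hb
    apply ht1
    have h3 : t = g⁻¹ * (g * t * g⁻¹) * g := by group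
    rw [h3, ← hb, mul_one, inv_mul_cancel]
  · right
    exact ((c4.trans (D_TabD8.conj hcm (K := F) p h0)).symm)
  · left
    have c1 := D_TabE7A1.conj hcm (K := F) p (m := 128) (by decide)
    have c2 := D_TabE7A1.conj hcm (K := F) p h0
    rw [zS_eq]
    exact c1.trans (c2.symm.trans c4.symm)

set_option backward.isDefEq.respectTransparency false in
theorem num_E7A1 : (chevE8.rank : ℤ) + ((List.finRange chevE8.nroots).map fun r : Fin chevE8.nroots =>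
    if rt chevE8 r (7 : Fin 8) % 2 = 0 then (1 : ℤ) else -1).sum = 24 := by decide +kernel

/-- the trace of the first class -/
theorem tr_z : trL chevE8 (zS isType_E8 F [7]) = 24 := by
  obtain ⟨p, hpp, hpc⟩ := exists_prime F
  have : Fact p.Prime := ⟨hpp⟩
  have c1 := D_TabE7A1.conj hcm (K := F) p (m := 128) (by decide)
  rw [zS_eq, trL_isConj c1]
  have e := trL_TT Nodes.KindE.isType8 (n := th Nodes.KindE.isType8 (sg F 8 n_TabE7A1))
    (thT Nodes.KindE.isType8 (sg F 8 n_TabE7A1)).2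
    (f := fun r => rt chevE8 r (7 : Fin 8)) fun r hr => ch_rep n0_TabE7A1 hr
  have h := congrArg (Int.cast : ℤ → F) num_E7A1
  refine e.trans (h.trans ?_)
  norm_num

/-- an involution of trace `-8` -/
theorem tr_neg (ho : Odd (Fintype.card F)) {t : ↥(chevE8.group F)} (ht : t * t = 1) (h : trL chevE8 t = -8) :
    t ≠ 1 ∧ ¬ IsConj (zS isType_E8 F [7]) t ∧ IsConj (th Nodes.KindE.isType8 (sg F 8 n_TabD8)) t := by
  have h2 := two_ne ho
  have ht1 : t ≠ 1 := by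
    rintro rfl
    have h3 : trL chevE8 (1 : ↥(chevE8.group F)) = 248 := by
      show Matrix.trace (1 : Matrix chevE8.Idx chevE8.Idx F) = 248
      rw [Matrix.trace_one]
      have : Fintype.card chevE8.Idx = 248 := by
        show Fintype.card (Fin chevE8.rank ⊕ Fin chevE8.nroots) = 248
        rw [Fintype.card_sum, Fintype.card_fin, Fintype.card_fin]
        rfl
      rw [this]
      norm_num
    rw [h] at h3
    have h5 : (2 : F) ^ 8 = 0 := by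
      have : (2 : F) ^ 8 = 248 - -8 := by norm_num
      rw [this, ← h3, sub_self]
    exact h2 (pow_eq_zero_iff (by norm_num) |>.1 h5)
  have hn : ¬ IsConj (zS isType_E8 F [7]) t := by
    intro h3
    have h4 := trL_isConj h3
    rw [tr_z, h] at h4
    have h5 : (2 : F) ^ 5 = 0 := by
      have : (2 : F) ^ 5 = 24 - -8 := by norm_num
      rw [this, h4, sub_self]
    exact h2 (pow_eq_zero_iff (by norm_num) |>.1 h5)
  exact ⟨ht1, hn, (class_of ho ht ht1).resolve_left hn⟩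

/-- **`abb`**: no three commuting classical involutions of `E₈(q)`, `q` odd, whose products are not classical. -/
theorem abb (ho : Odd (Fintype.card F)) {t₁ t₂ t₃ : ↥(chevE8.group F)} (s₁ : t₁ * t₁ = 1) (s₂ : t₂ * t₂ = 1)
    (s₃ : t₃ * t₃ = 1) (m₁₂ : t₁ * t₂ = t₂ * t₁) (m₁₃ : t₁ * t₃ = t₃ * t₁) (m₂₃ : t₂ * t₃ = t₃ * t₂)
    (h₁ : IsConj (zS isType_E8 F [7]) t₁) (h₂ : IsConj (zS isType_E8 F [7]) t₂)
    (h₃ : IsConj (zS isType_E8 F [7]) t₃) (h₁₂ : trL chevE8 (t₁ * t₂) = -8) (h₁₃ : trL chevE8 (t₁ * t₃) = -8)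
    (h₂₃ : trL chevE8 (t₂ * t₃) = -8) (h₁₂₃ : trL chevE8 (t₁ * t₂ * t₃) = -8) : False := by
  have h2 := two_ne ho
  obtain ⟨J, hJ0, hJ1, hJ2⟩ := x2a_E8 (F := F) h2
  have hz1 : zS isType_E8 F [7] ≠ 1 := zS_ne_one isType_E8 h2 (by decide +kernel)
  have ne : ∀ {t : ↥(chevE8.group F)}, IsConj (zS isType_E8 F [7]) t → t ≠ 1 := by
    intro t ht h
    obtain ⟨g, rfl⟩ := isConj_iff.1 ht
    apply hz1
    calc zS isType_E8 F [7] = g⁻¹ * (g * zS isType_E8 F [7] * g⁻¹) * g := by group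
      _ = 1 := by rw [h]; group
  have sq : ∀ {a b : ↥(chevE8.group F)}, a * a = 1 → b * b = 1 → a * b = b * a → a * b * (a * b) = 1 := by
    intro a b ha hb hab
    calc a * b * (a * b) = a * (b * a) * b := by group
      _ = a * a * (b * b) := by rw [← hab]; group
      _ = 1 := by rw [ha, hb, one_mul]
  obtain ⟨n12, n12', d12⟩ := tr_neg ho (sq s₁ s₂ m₁₂) h₁₂
  obtain ⟨n13, n13', d13⟩ := tr_neg ho (sq s₁ s₃ m₁₃) h₁₃
  obtain ⟨n23, n23', d23⟩ := tr_neg ho (sq s₂ s₃ m₂₃) h₂₃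
  have m : t₁ * t₂ * t₃ = t₃ * (t₁ * t₂) := by rw [mul_assoc, m₂₃, ← mul_assoc, m₁₃, mul_assoc]
  obtain ⟨n123, n123', d123⟩ := tr_neg ho (sq (sq s₁ s₂ m₁₂) s₃ m) h₁₂₃
  have cz : ∀ {a b : ↥(chevE8.group F)}, IsConj (zS isType_E8 F [7]) a → IsConj (zS isType_E8 F [7]) b → b * b = 1 →
      b * a = a * b → ¬ IsConj (zS isType_E8 F [7]) (a * b) → Cz (J a) b := by
    intro a b ha hb hbb hba hn
    exact cz_of h2 hJ0 hJ2 ha hbb hba fun h => hn (hb.trans h)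
  have nst : ∀ {a b : ↥(chevE8.group F)}, a * a = 1 → a * b ≠ 1 → b ≠ a := by
    rintro a b ha hab rfl
    exact hab ha
  have k₁₂ := cz h₁ h₂ s₂ m₁₂.symm n12'
  have k₁₃ := cz h₁ h₃ s₃ m₁₃.symm n13'
  have k₂₃ := cz h₂ h₃ s₃ m₂₃.symm n23'
  have k₂₁ := cz h₂ h₁ s₁ m₁₂ (by rwa [← m₁₂])
  have k₃₁ := cz h₃ h₁ s₁ m₁₃ (by rwa [← m₁₃])
  have k₃₂ := cz h₃ h₂ s₂ m₂₃ (by rwa [← m₂₃])
  refine kill (hJ1 _ h₁) (hJ1 _ h₂) (hJ1 _ h₃) s₁ s₂ s₃ m₁₂ m₁₃ m₂₃ k₁₂ k₁₃ k₂₁ k₂₃ k₃₁ k₃₂ ?_ ?_ ?_ h2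
    (Cfsg.Agent.H392.KKL.rho chevE8 F) (dim_E8 h2 h₁) (dim_E8 h2 h₂) (dim_E8 h2 h₃) (dim_D8 h2 d12) (dim_D8 h2 d13)
    (dim_D8 h2 d23) (dim_D8 h2 d123)
  · intro g hg h hh
    exact comm_J (hJ1 _ h₁) (hJ1 _ h₂) s₁ (ne h₂) (ne h₁) (nst s₁ n12) k₁₂ k₂₁ hg hh
  · intro g hg h hh
    exact comm_J (hJ1 _ h₁) (hJ1 _ h₃) s₁ (ne h₃) (ne h₁) (nst s₁ n13) k₁₃ k₃₁ hg hh
  · intro g hg h hh
    exact comm_J (hJ1 _ h₂) (hJ1 _ h₃) s₂ (ne h₃) (ne h₂) (nst s₂ n23) k₂₃ k₃₂ hg hh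

end E8

end Cfsg.Agent.H304.KS.ABB
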