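import Cfsg.Agent.H304.KS.ABB
import Cfsg.Agent.H613.KS.Defs

/-!
# S4577, row `E₈(q)`, `q` odd, box e8.abb (helper304)

* `Five.pow5`, `Five.fix`, `Five.norm5` : the 5-element acts with order 5, without fixed points, `∏ y^i(t) = 1`;
* `e8_abb` : one orbit classical, the two other orbits not classical.
-/

set_option autoImplicit false

namespace Cfsg.Agent.H304.KS.ABB

open Cfsg Cfsg.Lie Cfsg.Lie.ChevalleyDatum Cfsg.Agent.H613.KS Cfsg.Agent.H167.KKL
open Cfsg.Agent.ChevalleyStructure.Elts Cfsg.Agent.ChevalleyStructure.CoxeterGeom Cfsg.Agent.ChevalleyStructure.NPerm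
open Cfsg.Agent.Nodes.RGDChev
open Cfsg.Agent.ChevalleyStructure Cfsg.Agent.ChevalleyStructure.CoxeterGeomTypes
open Cfsg.Agent.H348.KKL.E8R (two_ne trL_isConj trL_conj trL_emb conj_of_trace)
open Cfsg.Agent.GenExc.Chev (zS isType_E8)

section abs

variable {G : Type*} [Group G] {D : Subgroup G} {y : G}

theorem comm_sixteen (h : E16 D) {a b : G} (ha : a ∈ D) (hb : b ∈ D) : a * b = b * a := by
  have h1 := h.inv _ (D.mul_mem ha hb)
  have h2 := h.inv _ ha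
  have h3 := h.inv _ hb
  calc a * b = b * b * (a * b) * (a * a) := by rw [h3, h2]; group
    _ = b * (b * a * (b * a)) * a := by group
    _ = b * a := by rw [h.inv _ (D.mul_mem hb ha)]; group

/-- no fixed points -/
theorem five_fix (h : E16 D) (hy : Five D y) {d : G} (hd : d ∈ D) (hyd : y * d * y⁻¹ = d) : d = 1 := by
  rcases hy.irr (Subgroup.zpowers d) ((Subgroup.zpowers_le).2 hd) (by
    rintro _ ⟨n, rfl⟩
    refine ⟨n, ?_⟩
    show d ^ n = y * d ^ n * y⁻¹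
    have h1 : Commute y d := by
      show y * d = d * y
      exact mul_inv_eq_iff_eq_mul.1 hyd
    have h3 := h1.zpow_right n
    rw [h3.eq, mul_inv_cancel_right]) with h1 | h1
  · rwa [Subgroup.zpowers_eq_bot] at h1
  · exfalso
    have h2 := Nat.card_zpowers d
    rw [h1, h.card] at h2
    have h3 : orderOf d ∣ 2 := orderOf_dvd_of_pow_eq_one (by rw [pow_two]; exact h.inv d hd)
    have h4 := Nat.le_of_dvd (by norm_num) h3
    omega

/-- the action of `y` on `D` -/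
def sig (hy : Five D y) : D → D := fun d => ⟨y * d * y⁻¹, (hy.norm d).2 d.2⟩

theorem sig_iter (hy : Five D y) (n : ℕ) (d : D) : (((sig hy)^[n] d : D) : G) = y ^ n * d * (y ^ n)⁻¹ := by
  induction n with
  | zero => simp
  | succ n ih =>
    rw [Function.iterate_succ_apply']
    show y * _ * y⁻¹ = _
    rw [ih, pow_succ']
    group

/-- `y ^ 5` centralises `D` -/
theorem five_pow (h : E16 D) (hy : Five D y) {d : G} (hd : d ∈ D) : y ^ 5 * d * (y ^ 5)⁻¹ = d := by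
  obtain ⟨m, hm⟩ := hy.five
  have hfin : Finite D := Nat.finite_of_card_ne_zero (by rw [h.card]; norm_num)
  have := Fintype.ofFinite D
  have h1 : Function.IsPeriodicPt (sig hy) (5 ^ m) ⟨d, hd⟩ := by
    apply Subtype.ext
    rw [sig_iter, ← hm, pow_orderOf_eq_one]
    show 1 * d * 1⁻¹ = d
    group
  have h2 := h1.minimalPeriod_dvd
  have h3 : Function.minimalPeriod (sig hy) ⟨d, hd⟩ ≤ 16 := by
    have h4 := Function.minimalPeriod_le_card (f := sig hy) (x := ⟨d, hd⟩)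
    rwa [← Nat.card_eq_fintype_card, h.card] at h4
  obtain ⟨j, -, hj⟩ := (Nat.dvd_prime_pow (by norm_num)).1 h2
  have hj1 : j ≤ 1 := by
    by_contra hcon
    have h5 : 5 ^ 2 ≤ 5 ^ j := Nat.pow_le_pow_right (by norm_num) (by omega)
    omega
  have h6 : Function.minimalPeriod (sig hy) ⟨d, hd⟩ ∣ 5 := by
    rw [hj]
    exact pow_dvd_pow 5 hj1
  have h7 : Function.IsPeriodicPt (sig hy) 5 ⟨d, hd⟩ :=
    (Function.isPeriodicPt_minimalPeriod (sig hy) _).trans_dvd h6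
  have h8 := congrArg (Subtype.val) (h7 : (sig hy)^[5] ⟨d, hd⟩ = ⟨d, hd⟩)
  rwa [sig_iter] at h8

/-- the conjugates -/
theorem conj_mem (hy : Five D y) {d : G} (hd : d ∈ D) (n : ℕ) : y ^ n * d * (y ^ n)⁻¹ ∈ D := by
  have h1 := ((sig hy)^[n] ⟨d, hd⟩).2
  rwa [sig_iter] at h1

/-- the product of an orbit is 1 -/
theorem five_prod (h : E16 D) (hy : Five D y) {d : G} (hd : d ∈ D) :
    d * (y * d * y⁻¹) * (y ^ 2 * d * (y ^ 2)⁻¹) = y ^ 3 * (d * (y * d * y⁻¹)) * (y ^ 3)⁻¹ := by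
  have m0 := hd
  have m1 := (hy.norm d).2 hd
  have m2 := conj_mem hy hd 2
  have m3 := conj_mem hy hd 3
  have m4 := conj_mem hy hd 4
  have hp := five_pow h hy hd
  have h1 : d * (y * d * y⁻¹) * (y ^ 2 * d * (y ^ 2)⁻¹) * ((y ^ 3 * d * (y ^ 3)⁻¹) * (y ^ 4 * d * (y ^ 4)⁻¹)) = 1 := by
    apply five_fix h hy (D.mul_mem (D.mul_mem (D.mul_mem m0 m1) m2) (D.mul_mem m3 m4))
    have e : y * (d * (y * d * y⁻¹) * (y ^ 2 * d * (y ^ 2)⁻¹) * ((y ^ 3 * d * (y ^ 3)⁻¹) * (y ^ 4 * d * (y ^ 4)⁻¹))) *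
        y⁻¹ = (y * d * y⁻¹) * (y ^ 2 * d * (y ^ 2)⁻¹) * ((y ^ 3 * d * (y ^ 3)⁻¹) * (y ^ 4 * d * (y ^ 4)⁻¹)) *
        (y ^ 5 * d * (y ^ 5)⁻¹) := by group
    rw [e, hp, comm_sixteen h (D.mul_mem (D.mul_mem m1 m2) (D.mul_mem m3 m4)) m0]
    group
  have e2 : y ^ 3 * (d * (y * d * y⁻¹)) * (y ^ 3)⁻¹ = (y ^ 3 * d * (y ^ 3)⁻¹) * (y ^ 4 * d * (y ^ 4)⁻¹) := by group
  rw [e2]
  have h3 := h.inv _ (D.mul_mem m3 m4)
  rw [mul_eq_one_iff_eq_inv.1 h1]
  exact inv_eq_of_mul_eq_one_left h3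

end abs

section E8

variable {F : Type} [Field F] [Fintype F]

/-- **box e8.abb over `F`**: the orbit of `t` is classical, the two other orbits have trace `-8` -/
theorem e8_abb' (ho : Odd (Fintype.card F)) {D : Subgroup ↥(chevE8.group F)} (hD : E16 D) {y : ↥(chevE8.group F)}
    (hy : Five D y) {t : ↥(chevE8.group F)} (ht : t ∈ D) (ht1 : t ≠ 1) (h1 : trL chevE8 t = 24)
    (h2 : trL chevE8 (t * (y * t * y⁻¹)) = -8) (h3 : trL chevE8 (t * (y ^ 2 * t * (y ^ 2)⁻¹)) = -8) : False := by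
  have m1 := (hy.norm t).2 ht
  have m2 := conj_mem hy ht 2
  have c0 := conj_of_trace ho (hD.inv t ht) ht1 h1
  refine abb ho (hD.inv t ht) (hD.inv _ m1) (hD.inv _ m2) (comm_sixteen hD ht m1) (comm_sixteen hD ht m2)
    (comm_sixteen hD m1 m2) c0 (c0.trans (isConj_iff.2 ⟨y, rfl⟩)) (c0.trans (isConj_iff.2 ⟨y ^ 2, rfl⟩)) h2 h3 ?_ ?_
  · have e : y * t * y⁻¹ * (y ^ 2 * t * (y ^ 2)⁻¹) = y * (t * (y * t * y⁻¹)) * y⁻¹ := by group
    rw [e, trL_conj, h2]
  · rw [five_prod hD hy ht, trL_conj, h2]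

/-- **box e8.abb** -/
theorem e8_abb (hp : IsType chevE8 8 CoxeterMatrix.E₈) (ho : Odd (Fintype.card F)) {k : Type} [Field k] (f : F →+* k)
    {D : Subgroup ↥(chevE8.group F)} (hD : E16 D) {y : ↥(chevE8.group F)} (hy : Five D y) {t : ↥(chevE8.group F)}
    (ht : t ∈ D) (ht1 : t ≠ 1) (h1 : trL chevE8 (Cfsg.Agent.GpExc.Field.emb hp.inList f t) = 24)
    (h2 : trL chevE8 (Cfsg.Agent.GpExc.Field.emb hp.inList f (t * (y * t * y⁻¹))) = -8)
    (h3 : trL chevE8 (Cfsg.Agent.GpExc.Field.emb hp.inList f (t * (y ^ 2 * t * (y ^ 2)⁻¹))) = -8) : False := by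
  rw [trL_emb] at h1 h2 h3
  refine e8_abb' ho hD hy ht ht1 ?_ ?_ ?_
  · apply f.injective
    rw [h1, map_ofNat]
  · apply f.injective
    rw [h2, map_neg, map_ofNat]
  · apply f.injective
    rw [h3, map_neg, map_ofNat]

/-- `¬` classical form -/
theorem e8_abb'' (ho : Odd (Fintype.card F)) {D : Subgroup ↥(chevE8.group F)} (hD : E16 D) {y : ↥(chevE8.group F)}
    (hy : Five D y) {t : ↥(chevE8.group F)} (ht : t ∈ D) (ht1 : t ≠ 1)
    (h1 : IsConj (zS isType_E8 F [7]) t) (h2 : trL chevE8 (t * (y * t * y⁻¹)) = -8)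
    (h3 : trL chevE8 (t * (y ^ 2 * t * (y ^ 2)⁻¹)) = -8) : False :=
  e8_abb' ho hD hy ht ht1 (by rw [← trL_isConj h1, tr_z]) h2 h3

end E8

end Cfsg.Agent.H304.KS.ABB
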